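import Cfsg.Agent.PGrp.MaxClassP
import Cfsg.Agent.Invol.ZS
import Cfsg.Agent.Solv.Fitting

/-! Brauer–Fowler type bounds: `dfc_bf` (a small class among the products of two conjugates of an involution),
`dfc_core` (the index of `O(G)` is bounded by an involution centralizer and the 2-part of the order), `dfc_odd`
(a four-group acting on a group of odd order), `dfc_four`. -/

set_option autoImplicit false

namespace Cfsg.Agent.Defc

open Subgroup Cfsg.Agent.BG
universe u

theorem dfc_bf {G : Type*} [Group G] [Finite G] {t : G} {c : ℕ} (t2 : t * t = 1) (hc : #C1[t] ≤ c) :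
    Nat.card G ≤ 2 * c ∨ ∃ x : G, x ≠ 1 ∧ C1[x].index ≤ 2 * c ^ 2 := by
  classical
  have := Fintype.ofFinite G
  refine or_iff_not_imp_right.2 fun h => ?_
  push Not at h
  set T : Finset G := Finset.univ.filter fun y => IsConj t y with hT
  have h1 : Nat.card G ≤ T.card * c := by
    rw [← Invol.card_class_mul_card_centralizer t, Nat.card_eq_fintype_card, Fintype.card_subtype]
    exact Nat.mul_le_mul_left _ hc
  have sq : ∀ a ∈ T, a * a = 1 := fun a ha => by
    obtain ⟨g, rfl⟩ := isConj_iff.1 (Finset.mem_filter.1 ha).2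
    rw [conj_mul, t2]; simp
  have fib : ∀ x : G, ((T ×ˢ T).filter fun p => p.1 * p.2 = x).card ≤ if x = 1 then T.card else #C1[x] := fun x => by
    split_ifs with hx
    · refine Finset.card_le_card_of_injOn Prod.fst (fun p hp => ?_) fun p hp q hq e => ?_
      · exact (Finset.mem_product.1 (Finset.mem_filter.1 hp).1).1
      · have a := (Finset.mem_filter.1 hp).2
        have b := (Finset.mem_filter.1 hq).2
        exact Prod.ext e (mul_left_cancel (a.trans (e ▸ b.symm)))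
    · by_cases hn : ((T ×ˢ T).filter fun p => p.1 * p.2 = x) = ∅
      · simp [hn]
      obtain ⟨p0, hp0⟩ := Finset.nonempty_iff_ne_empty.2 hn
      have inv : ∀ p ∈ (T ×ˢ T).filter fun p => p.1 * p.2 = x, p.1 * x = x⁻¹ * p.1 := fun p hp => by
        obtain ⟨a, b⟩ := Finset.mem_filter.1 hp
        obtain ⟨a1, a2⟩ := Finset.mem_product.1 a
        rw [← b, mul_inv_rev, inv_eq_of_mul_eq_one_right (sq _ a1), inv_eq_of_mul_eq_one_right (sq _ a2),
          ← mul_assoc, sq _ a1, one_mul, mul_assoc, sq _ a1, mul_one]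
      rw [← Nat.card_eq_finsetCard]
      refine Nat.card_le_card_of_injective (fun p => (⟨p0.1⁻¹ * p.1.1, mem_cent1.2 ?_⟩ : C1[x])) fun p q e => ?_
      · have e0 : p0.1⁻¹ * x⁻¹ = x * p0.1⁻¹ := by
          rw [eq_mul_inv_iff_mul_eq, mul_assoc, ← inv _ hp0, inv_mul_cancel_left]
        rw [mul_assoc, inv _ p.2, ← mul_assoc, e0, mul_assoc]
      · have e1 : p.1.1 = q.1.1 := mul_left_cancel (congrArg Subtype.val e)
        have a := (Finset.mem_filter.1 p.2).2
        have b := (Finset.mem_filter.1 q.2).2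
        exact Subtype.ext (Prod.ext e1 (mul_left_cancel (a.trans (e1 ▸ b.symm))))
  have h2 : (T ×ˢ T).card = ∑ x : G, ((T ×ˢ T).filter fun p => p.1 * p.2 = x).card :=
    Finset.card_eq_sum_card_fiberwise fun p _ => Finset.mem_univ _
  have h3 : 2 * c ^ 2 * (T.card * T.card) ≤ 2 * c ^ 2 * T.card + Nat.card G * Nat.card G := by
    rw [← Finset.card_product, h2, Finset.mul_sum]
    calc _ ≤ ∑ x : G, ((if x = 1 then 2 * c ^ 2 * T.card else 0) + Nat.card G) := Finset.sum_le_sum fun x _ => by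
          refine (Nat.mul_le_mul_left _ (fib x)).trans ?_
          split_ifs with hx
          · exact Nat.le_add_right _ _
          · rw [zero_add, ← C1[x].index_mul_card]
            exact Nat.mul_le_mul_right _ (h x hx).le
      _ = _ := by simp [Finset.sum_add_distrib]
  have c0 : 0 < c := Nat.card_pos.trans_le hc
  have h4 : Nat.card G * Nat.card G ≤ c ^ 2 * (T.card * T.card) := by
    calc _ ≤ T.card * c * (T.card * c) := Nat.mul_le_mul h1 h1
      _ = _ := by ring
  have h5 : c ^ 2 * (T.card * T.card) ≤ c ^ 2 * (2 * T.card) := by nlinarith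
  have h6 := Nat.le_of_mul_le_mul_left h5 (by positivity)
  have h7 : T.card ≤ 2 := by
    by_contra h8
    nlinarith
  exact h1.trans (Nat.mul_le_mul_right _ h7)

theorem dfc_step {G : Type u} [Group G] [Finite G] {a c N : ℕ} {t : G} (hO : pPrimeCore 2 G = ⊥)
    (ih : ∀ (X : Type u) [Group X] [Finite X] (t : X), ¬ 2 ^ a ∣ Nat.card X → t * t = 1 → #C1[t] ≤ c →
      (pPrimeCore 2 X).index ≤ N)
    (ha : ¬ 2 ^ (a + 1) ∣ Nat.card G) (t2 : t * t = 1) (hc : #C1[t] ≤ c) :
    Nat.card G ≤ 2 * c + N * ((2 * c ^ 2).factorial * 2 ^ a) := by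
  have := Nat.fact_prime_two
  rcases dfc_bf t2 hc with h | ⟨x, x1, hx⟩
  · exact h.trans (Nat.le_add_right _ _)
  refine le_trans ?_ (Nat.le_add_left _ _)
  set K := C1[x].normalCore with hK
  have iK : K.index ≤ (2 * c ^ 2).factorial :=
    (Nat.le_of_dvd (Nat.factorial_pos _) (by
      rw [hK, normalCore_eq_ker, index_ker, index_eq_card, ← Nat.card_perm]
      exact card_subgroup_dvd_card _)).trans (Nat.factorial_le hx)
  have nM : (C[K]).Normal := inferInstance
  have xM : x ∈ C[K] := fun k hk => mem_cent1.1 (normalCore_le _ hk)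
  have pZ : IsPGroup 2 (C[K] ⊓ K : Subgroup G) := by
    have ab : IsMulCommutative (C[K] ⊓ K : Subgroup G) := ⟨⟨fun y z => Subtype.ext (z.2.1 _ y.2.2)⟩⟩
    have : (C[K] ⊓ K : Subgroup G) ≤ fittingSubgroup G := le_sSup ⟨inferInstance, by
      open scoped IsMulCommutative in infer_instance⟩
    have h2 := this.trans (Solv.fitting_le_sup (p := 2))
    rw [hO, sup_bot_eq] at h2
    exact (Solv.isPGroup_pCore 2 G).to_le h2
  have cZ : #(C[K] ⊓ K : Subgroup G) ≤ 2 ^ a := by
    obtain ⟨k, hk⟩ := IsPGroup.iff_card.1 pZ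
    rw [hk]
    refine Nat.pow_le_pow_right two_pos (Nat.lt_succ_iff.1 (not_le.1 fun h => ha ?_))
    exact (pow_dvd_pow 2 h).trans (hk ▸ card_subgroup_dvd_card _)
  have eM : 2 ∣ #C[K] := by
    by_contra h
    have := Invol.le_oddCore (N := C[K]) (Nat.odd_iff.2 (Nat.two_dvd_ne_zero.1 h))
    exact x1 (by simpa [hO] using this xM)
  have h1 := ih (G ⧸ C[K]) (t : G ⧸ C[K]) (fun h => ha (by
    rw [pow_succ, card_eq_card_quotient_mul_card_subgroup C[K]]; exact Nat.mul_dvd_mul h eM))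
    (by rw [← QuotientGroup.mk_mul, t2, QuotientGroup.mk_one]) ((PGrp.card_cent_quot_le _ t).trans hc)
  set U := (pPrimeCore 2 (G ⧸ C[K])).comap (QuotientGroup.mk' C[K]) with hU
  have iU : U.index ≤ N := by rwa [hU, index_comap_of_surjective _ (QuotientGroup.mk'_surjective _)]
  have hW : U ⊓ K ≤ C[K] := by
    set W := U ⊓ K
    have nW : W.Normal := inferInstance
    have o1 : pPrimeCore 2 W = ⊥ := (map_eq_bot_iff_of_injective _ W.subtype_injective).1
      (le_bot_iff.1 (hO ▸ Solv.map_subtype_pPrimeCore_le W))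
    have o2 := Invol.pPrimeCore_quotient_central o1 (C[K].subgroupOf W)
      (fun z hz => mem_center_iff.2 fun y => Subtype.ext (hz _ y.2.2))
      ((pZ.comap_subtype (K := W)).to_le fun z hz => ⟨hz, z.2.2⟩)
    have o3 : (Nat.card (W ⧸ C[K].subgroupOf W)).Coprime 2 := by
      have e := relIndex_ker (K := W) (QuotientGroup.mk' C[K])
      rw [QuotientGroup.ker_mk'] at e
      change (C[K].relIndex W).Coprime 2
      rw [e]
      exact (Solv.coprime_card_pPrimeCore 2 _).coprime_dvd_left (card_dvd_of_le (map_le_iff_le_comap.2 inf_le_left))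
    have o4 := Solv.pPrimeCore_eq_top_iff.2 o3
    intro w hw
    have : ((⟨w, hw⟩ : W) : W ⧸ C[K].subgroupOf W) ∈ pPrimeCore 2 (W ⧸ C[K].subgroupOf W) := o4 ▸ mem_top _
    rw [o2, mem_bot, QuotientGroup.eq_one_iff] at this
    exact this
  rw [← (U ⊓ K).index_mul_card, ← mul_assoc]
  exact Nat.mul_le_mul (index_inf_le.trans (Nat.mul_le_mul iU iK))
    ((card_le_of_le (le_inf hW inf_le_right)).trans cZ)

theorem dfc_core (a c : ℕ) : ∃ N : ℕ, ∀ (X : Type u) [Group X] [Finite X] (t : X), ¬ 2 ^ a ∣ Nat.card X → t * t = 1 →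
    #C1[t] ≤ c → (pPrimeCore 2 X).index ≤ N := by
  induction a with
  | zero => exact ⟨0, fun X _ _ t h => absurd (by simp) h⟩
  | succ a ih =>
    obtain ⟨N, ih⟩ := ih
    refine ⟨_, fun X _ _ t h t2 hc => dfc_step (t := (t : X ⧸ pPrimeCore 2 X))
      (Solv.pPrimeCore_quotient_pPrimeCore 2 X) ih (fun e => h (e.trans (card_quotient_dvd_card _)))
      (by rw [← QuotientGroup.mk_mul, t2, QuotientGroup.mk_one]) ((PGrp.card_cent_quot_le _ t).trans hc)⟩

theorem dfc_conj {G : Type*} [Group G] {a b : G} {m : ℕ} (ha : a * a = 1) (hb : b * b = 1) (hm : Odd m)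
    (h : (a * b) ^ m = 1) : ∃ k : ℕ, (a * b) ^ k * a * ((a * b) ^ k)⁻¹ = b := by
  obtain ⟨k, rfl⟩ := hm
  have e : a * (a * b)⁻¹ * a⁻¹ = a * b := by
    rw [mul_inv_rev, inv_eq_of_mul_eq_one_right ha, inv_eq_of_mul_eq_one_right hb, mul_assoc, mul_assoc, ha, mul_one]
  have e2 : a * ((a * b) ^ k)⁻¹ = (a * b) ^ k * a := by
    rw [← inv_pow, ← mul_inv_eq_iff_eq_mul, ← conj_pow, e]
  refine ⟨k, ?_⟩
  rw [mul_assoc, e2, ← mul_assoc, ← pow_add, ← two_mul, eq_inv_of_mul_eq_one_left ((pow_succ _ _).symm.trans h),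
    mul_inv_rev, inv_eq_of_mul_eq_one_right ha, inv_eq_of_mul_eq_one_right hb, mul_assoc, ha, mul_one]

theorem dfc_odd {G : Type*} [Group G] [Finite G] {O : Subgroup G} [O.Normal] (ho : Odd #O) {a b : G}
    (ha : a * a = 1) (hb : b * b = 1) (hab : a * b = b * a) : #O ≤ #C1[a] * #C1[a * b] * #C1[b] := by
  have key : ∀ x ∈ O, ∃ y ∈ C1[a], ∃ u ∈ C1[a * b], u * y * x ∈ C1[b] := fun x hx => by
    let φ := QuotientGroup.mk' O
    have hφ : ∀ g, φ g = 1 → g ^ #O = 1 := fun g hg =>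
      congrArg Subtype.val (pow_card_eq_one' (x := (⟨g, (QuotientGroup.eq_one_iff _).1 hg⟩ : O)))
    have x1 : φ x = 1 := (QuotientGroup.eq_one_iff _).2 hx
    have d2 : a * b * (a * b) = 1 := by rw [mul_assoc, ← mul_assoc b, ← hab, mul_assoc, hb, mul_one, ha]
    set s := x * b * x⁻¹ with hs
    have s2 : s * s = 1 := by rw [hs, conj_mul, hb]; simp
    have φs : φ s = φ b := by simp [hs, x1]
    set z := (a * s) ^ #O with hz
    have φz : φ z = φ (a * b) := by
      obtain ⟨k, hk⟩ := ho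
      rw [hz, map_pow, map_mul, φs, ← map_mul, hk, pow_succ, pow_mul, sq, ← map_mul, d2, map_one, one_pow, one_mul]
    have z2 : z * z = 1 := by
      rw [hz, ← (Commute.refl (a * s)).mul_pow]
      exact hφ _ (by rw [map_mul, map_mul, φs, ← map_mul, ← map_mul, d2, map_one])
    have ia : a * (a * s) * a⁻¹ = (a * s)⁻¹ := by
      rw [mul_inv_rev, inv_eq_of_mul_eq_one_right ha, inv_eq_of_mul_eq_one_right s2, ← mul_assoc, ha, one_mul]
    have is : s * (a * s) * s⁻¹ = (a * s)⁻¹ := by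
      rw [mul_inv_rev a, inv_eq_of_mul_eq_one_right ha, inv_eq_of_mul_eq_one_right s2, mul_assoc s, mul_assoc a, s2,
        mul_one]
    have za : z ∈ C1[a] := mem_cent1.2 (by
      rw [eq_comm, ← mul_inv_eq_iff_eq_mul, hz, ← conj_pow, ia, inv_pow, ← hz, inv_eq_of_mul_eq_one_right z2])
    have zs : s * z * s⁻¹ = z := by rw [hz, ← conj_pow, is, inv_pow, ← hz, inv_eq_of_mul_eq_one_right z2]
    obtain ⟨k, hk⟩ := dfc_conj z2 d2 ho (hφ _ (by rw [map_mul, φz, ← map_mul, d2, map_one]))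
    have φy : φ ((z * (a * b)) ^ k) = 1 := by rw [map_pow, map_mul, φz, ← map_mul, d2, map_one, one_pow]
    have ya : (z * (a * b)) ^ k ∈ C1[a] := pow_mem (mul_mem za (mem_cent1.2 (by rw [mul_assoc, ← hab]))) k
    generalize (z * (a * b)) ^ k = y at hk φy ya
    have r2 : y * s * y⁻¹ * (y * s * y⁻¹) = 1 := by rw [conj_mul, s2]; simp
    have rd : y * s * y⁻¹ ∈ C1[a * b] := mem_cent1.2 (by
      rw [← hk, conj_mul, conj_mul, mul_inv_eq_iff_eq_mul.1 zs])
    obtain ⟨l, hl⟩ := dfc_conj r2 hb ho (hφ _ (by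
      rw [map_mul, map_mul, map_mul, map_inv, φy, φs, one_mul, inv_one, mul_one, ← map_mul, hb, map_one]))
    refine ⟨y, ya, (y * s * y⁻¹ * b) ^ l, pow_mem (mul_mem rd (mem_cent1.2 (by rw [← mul_assoc, ← hab]))) l,
      mem_cent1.2 ?_⟩
    generalize (y * s * y⁻¹ * b) ^ l = u at hl
    rw [← mul_inv_eq_iff_eq_mul]
    conv_rhs => rw [← hl, hs]
    group
  choose! y hy u hu h using key
  rw [← Nat.card_prod, ← Nat.card_prod]
  refine Nat.card_le_card_of_injective (fun x : O => ((⟨y x, hy x x.2⟩, ⟨u x, hu x x.2⟩), ⟨_, h x x.2⟩)) fun x w e => ?_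
  simp only [Prod.mk.injEq, Subtype.mk.injEq] at e
  obtain ⟨⟨e1, e2⟩, e3⟩ := e
  rw [e1, e2] at e3
  exact Subtype.ext (mul_left_cancel e3)

theorem dfc_four (a c : ℕ) : ∃ N : ℕ, ∀ (X : Type u) [Group X] [Finite X] (v w : X), ¬ 2 ^ a ∣ Nat.card X →
    v * v = 1 → w * w = 1 → v * w = w * v → #C1[v] ≤ c → #C1[w] ≤ c → #C1[v * w] ≤ c → Nat.card X ≤ N := by
  obtain ⟨N, hN⟩ := dfc_core.{u} a c
  refine ⟨N * (c * c * c), fun X _ _ v w h v2 w2 vw c1 c2 c3 => ?_⟩
  rw [← (pPrimeCore 2 X).index_mul_card]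
  exact Nat.mul_le_mul (hN X v h v2 c1) ((dfc_odd Invol.odd_oddCore v2 w2 vw).trans
    (Nat.mul_le_mul (Nat.mul_le_mul c1 c3) c2))

end Cfsg.Agent.Defc
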